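-- copy of `SC2.G` avoiding a name clash (`Comp.syl_inf`) with `Sig.S4D`
/-
Goldschmidt's Theorem A: the perfect residual of the centralizer of a strongly closed 2-subgroup.
-/
import Cfsg.Agent.NCz.SC2F
set_option autoImplicit false
set_option linter.unusedSectionVars false

namespace CF.SC2
open Subgroup Cfsg CF.BG CF.Sig CF.GW CF.Ab2
open CF.ZD (LM LM_le mem_LM LM_le_iff LM_mono)
open scoped commutatorElement

universe u
section
variable {G : Type u} {G' : Type*} [Group G] [Finite G] [Group G'] [Finite G'] {σ τ ρ : Set G}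
variable {A B C D E H K L M N P Q R S T U V W X Y Z : Subgroup G} {a b d g o s t u v w x y z : G}

theorem SS.map_syl (h : SS σ X) (hT : Syl 2 T X) (f : G →* G') :
    LM (f '' (σ ∩ X)) (T.map f) ≤ (LM σ T).map f := LM_le_iff.2 (by
  rintro _ ⟨s, hs, rfl⟩ m
  obtain ⟨y, hy, e, q⟩ := exists_conj_mem_map hT f hs.2 (h.e2 hs.1) m
  exact ⟨_, mem_LM (h.conj hs.1 hs.2 hy) q, by simp [e]⟩)

theorem SS.eq_of_le (h : SS σ X) (hT : Syl 2 T X) (hU : Syl 2 U X) (l : LM σ T ≤ LM σ U) : LM σ T = LM σ U := by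
  obtain ⟨g, hg, rfl⟩ := hT.syl_conj hU
  exact eq_of_le_of_card_ge l (by rw [← h.cj_eq hT.le hg, card_cj])

theorem SS.max (h : SS σ X) (hT : Syl 2 T X) (m : P ≤ X) (k : P2 P) (l : LM σ T ≤ P) : LM σ P ≤ LM σ T := by
  obtain ⟨U, hU, e⟩ := exists_syl_le m k
  exact (LM_mono e).trans (h.eq_of_le hT hU ((LM_le_iff.2 fun _ a b => mem_LM a (l (mem_LM a b))).trans
    (LM_mono e))).ge

theorem SS.le_LM (h : SS σ X) (m : P ≤ X) (k : P2 P) (l : R ≤ LM σ P) (e : R ≤ U) : R ≤ LM σ U :=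
  fun _ a => mem_LM (h.mem m k (l a)) (e a)

/-- the statement of the theorem -/
def TA (σ : Set G) (X : Subgroup G) : Prop :=
  ∀ T K, Syl 2 T X → K ≤ X → ⁅K, K⁆ = K → K ≤ 𝐂 (LM σ T) → ⁅K, LM σ X⁆ ≤ 𝒪 X

theorem SS.key (h : SS σ ⊤) (loc : ∀ R, P2 R → R ≠ ⊥ → R ≤ LM σ R → TA σ (𝐍 R)) (e : E2 x) (hT : Syl 2 T ⊤)
    (m : x ∈ Rs (𝐂 (LM σ T))) (hU : Syl 2 U ⊤) (xU : x ∈ U) : x ∈ Rs (𝐂 (LM σ U)) := by
  suffices ∀ R U, Syl 2 U ⊤ → x ∈ U → R = LM σ U ⊓ 𝐂₁ x → x ∈ Rs (𝐂 (LM σ U)) from this _ U hU xU rfl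
  intro R
  induction R using WellFoundedGT.induction with
  | ind R ih =>
  intro U hU xU eR
  have l1 : R ≤ LM σ U := eR.le.trans inf_le_left
  have l2 : R ≤ 𝐂₁ x := eR.le.trans inf_le_right
  have k : P2 R := hU.pi.le (l1.trans LM_le)
  obtain ⟨V, hV, m, l⟩ : ∃ V, Syl 2 V ⊤ ∧ x ∈ Rs (𝐂 (LM σ V)) ∧ R ≤ LM σ V := by
    obtain ⟨P, hP, l⟩ := exists_syl_le (le_cent1_iff.2 (Rs_le m)) (hT.pi.le LM_le)
    obtain ⟨c, hc, q⟩ := hP.syl_cj_le l2 k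
    refine ⟨cj c⁻¹ T, hT.cj_top _, ?_, ?_⟩ <;> rw [← h.cj_eq le_top (mem_top _)]
    · rw [← cj_cent, ← cj_Rs, mem_cj_inv, mem_cent1.1 hc, mul_inv_cancel_right]; exact m
    · exact cj_le_iff.1 ((h.le_LM le_top (hU.pi.cj c) ((cj_mono c l1).trans (h.cj_le le_top (mem_top _))) q).trans
        (h.max hT le_top hP.pi l))
  by_cases c : LM σ U ≤ R
  · rwa [h.eq_of_le hU hV (c.trans l)]
  have nx : zpowers x ≤ 𝐍 (LM σ U) := (zpowers_le.2 xU).trans (h.normal le_top).norm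
  have r1 : R ≠ ⊥ := fun q => hU.pi.nil.inf_cent_ne_bot (h.normal le_top) (fun i => c (i.le.trans bot_le))
    (BG.eq_bot_mono (eR.symm.trans q) (inf_le_inf_left _ (cent_le_cent1 xU)))
  have lt := (hV.pi.le LM_le).nil.lt_inf_norm (l.lt_of_ne fun q =>
    c ((h.eq_of_le hV hU (q.ge.trans l1)).ge.trans q.ge))
  have cx : LM σ V ⊓ 𝐍 R ≤ 𝐂₁ x := inf_le_left.trans (le_cent1_iff.2 (Rs_le m))
  obtain ⟨S, hS, l3⟩ := exists_syl_le (sup_le inf_le_right (zpowers_le.2 (cent_le_norm _ (le_cent1_iff.1 l2))))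
    (((hV.pi.le LM_le).le (inf_le_left (b := 𝐍 R))).sup e.zpowers
      (.inr (norm_of_cent (zpowers_le.2 (le_cent1_iff.1 cx)))))
  obtain ⟨W, hW, l4⟩ := exists_syl_le le_top hS.pi
  have l5 : LM σ V ⊓ 𝐍 R ≤ LM σ W := h.le_LM le_top hV.pi inf_le_left (le_sup_left.trans (l3.trans l4))
  have xW := ih _ (lt.trans_le (le_inf l5 cx)) W hW (l4 (l3 (mem_sup_right (mem_zpowers x)))) rfl
  have := loc R k r1 (h.le_LM le_top hU.pi l1 le_rfl) S _ hS (Rs_le.trans ((cent_anti (lt.le.trans l5)).trans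
    (cent_le_norm _))) Rs_perf (Rs_le.trans (cent_anti (LM_mono l4)))
  refine absurd (((hU.pi.le LM_le).nil.lt_inf_norm (l1.lt_of_not_ge c)).trans_le
    ((le_inf inf_le_left fun y hy => mem_cent1.2 ?_).trans eR.ge)) (lt_irrefl _)
  exact (commutatorElement_eq_one_iff_mul_comm.1 (eq_one_of_mem_bot (hU.pi.inf_eq_bot (O_pi _ _)) (mi
    (der_le U (commutator_mem_commutator xU (LM_le hy.1))) (this (commutator_mem_commutator xW
      (mem_LM (h.mem le_top hU.pi hy.1) hy.2)))))).symm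

/-- the second strongly closed set -/
def kap (σ : Set G) : Set G := {x | E2 x ∧ ∃ T, Syl 2 T ⊤ ∧ x ∈ Rs (𝐂 (LM σ T))}

theorem SS.cp (h : SS σ ⊤) (loc : ∀ R, P2 R → R ≠ ⊥ → R ≤ LM σ R → TA σ (𝐍 R)) : CP σ (kap σ) ⊤ := by
  obtain ⟨T, hT⟩ := BG.exists_syl 2 (⊤ : Subgroup G)
  refine ⟨h, ⟨⟨piElt_one _, T, hT, one_mem _⟩, And.left, fun {x g} ⟨a, U, hU, b⟩ _ _ => ⟨a.conj g, _, hU.cj_top g, ?_⟩,
    fun {P x y} l k ⟨a, U, hU, b⟩ ⟨c, V, hV, d⟩ e f => ?_⟩, fun {P x y} l k a ⟨c, V, hV, d⟩ e f => ?_⟩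
  · rwa [← h.cj_eq le_top (mem_top _), ← cj_cent, ← cj_Rs, conj_mem_cj]
  all_goals obtain ⟨W, hW, m⟩ := exists_syl_le l k
  · exact ⟨k.elt (mul_mem e f), W, hW, mul_mem (h.key loc a hU b hW (m e)) (h.key loc c hV d hW (m f))⟩
  · exact Rs_le (h.key loc c hV d hW (m f)) x (mem_LM a (m e))

theorem SS.ta_simple (h : SS σ ⊤) (ly : LY.{u}) (O : 𝒪 (⊤ : Subgroup G) = ⊥)
    (loc : ∀ R, P2 R → R ≠ ⊥ → R ≤ LM σ R → TA σ (𝐍 R)) (nn : ∀ R, P2 R → R ≤ LM σ R → R ⊴ ⊤ → R = ⊥) :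
    TA σ ⊤ := fun T K hT _ p c => by
  have cp := h.cp loc
  have l : Rs (𝐂 (LM σ T)) ≤ LM (kap σ) ⊤ := le_of_two Rs_perf fun x a e => mem_LM ⟨e, T, hT, a⟩ (mem_top x)
  refine (commutator_comm _ _).le.trans ((commutator_mono le_rfl ((le_Rs c p).trans l)).trans
    ((cp.pf ly).trans (sup_le (le_of_eq_of_le (by_contra fun n1 => ?_) bot_le) le_rfl)))
  have r := cp.s.inter cp.t
  have nM := r.normal le_rfl
  have OM : 𝒪 (LM (σ ∩ kap σ) ⊤) = ⊥ := BG.eq_bot_mono O (O_le_O_of_normal nM _)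
  have ab : ∀ {P}, P2 P → Abel (LM (σ ∩ kap σ) P) := fun k => (LM_mono' fun _ a _ => a.1).trans
    ((cp.cent le_top k).trans (cent_anti (LM_mono' fun _ a _ => a.2)))
  have hS := hT.inf_normal nM
  have g := (r.mono le_top).ga ly CF.ZD.LM_LM.ge OM hS (ab hS.pi)
  have O2 := nn _ (O_pi _ _) fun y a => mem_LM (r.mem le_top hS.pi (g.O_le a)).1 a
  have O2 := O2 ⟨le_top, le_norm_O _ nM.norm⟩
  obtain ⟨L, k⟩ : ∃ L, Comp L (LM (σ ∩ kap σ) ⊤) := by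
    by_contra! q
    exact n1 (le_bot_iff.1 (g.le_Lay.trans (by rw [Lay_eq_bot_iff.2 q, O2]; simp)))
  have z : 𝐙 L = ⊥ := BG.eq_bot_mono O2 (k.center_le_O OM)
  have n := Comp.ns k z
  have k' := k.trans nM.subN
  obtain ⟨s, hs, sL, s1⟩ := r.meet_comp k' n k.le
  have hQ := k'.syl_inf2 hT
  have ne := (r.mono le_top).ne_bot hQ hs sL s1
  obtain ⟨gd, e⟩ := (r.mono le_top).gd ly n hQ (ab hQ.pi) ne
  obtain ⟨t, ht, tL, t1⟩ := exists_of_LM ne
  obtain ⟨-, e2, U, hU, m⟩ := ht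
  exact t1 (n.eq_one tL.2 (gd_cent gd n hQ Rs_perf (l.trans (cp.symm.norm_comp k' z hs.1 sL s1))
    (Rs_le.trans (cent_anti (e.ge.trans (LM_le_iff.2 fun y a b => mem_LM a.1 b.1)))) (h.key loc e2 hU m hT tL.1)))

/-- the induction hypothesis -/
def IA (n : ℕ) : Prop := ∀ (G : Type u) [Group G] [Finite G] (σ : Set G) (X : Subgroup G), ♯X < n → SS σ X → TA σ X

theorem IA.quo (ih : IA.{u} (Nat.card G)) (h : SS σ ⊤) (n : N ⊴ ⊤) (n1 : N ≠ ⊥) (hT : Syl 2 T ⊤) (p : ⁅K, K⁆ = K)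
    (c : K ≤ 𝐂 (LM σ T)) : ∃ Y, N ≤ Y ∧ Y ⊴ ⊤ ∧ PiNat {2}ᶜ (N.relIndex Y) ∧ ⁅K, LM σ ⊤⁆ ≤ Y := by
  haveI := normalIn_top.1 n
  have hs := QuotientGroup.mk'_surjective N
  have e := map_top_of_surjective _ hs
  have q := ih _ _ _ (by
    rw [e, card_top, card_eq_card_quotient_mul_card_subgroup N]
    exact lt_mul_of_one_lt_right Nat.card_pos ((one_lt_card_iff_ne_bot N).2 n1)) (h.map (QuotientGroup.mk' N))
    _ (K.map (QuotientGroup.mk' N)) (hT.map _) (map_mono le_top) (by rw [← map_commutator, p])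
    ((map_cent c _).trans (cent_anti (h.map_syl hT _)))
  rw [← map_LM, ← map_commutator, e] at q
  haveI := normalIn_top.1 (O_normal {2}ᶜ (⊤ : Subgroup (G ⧸ N)))
  have k := QuotientGroup.ker_mk' N
  exact ⟨(𝒪 ⊤).comap (QuotientGroup.mk' N), k.ge.trans (ker_le_comap _ _), normalIn_top.2 inferInstance, by
    have := relIndex_ker ((𝒪 ⊤).comap (QuotientGroup.mk' N)) (QuotientGroup.mk' N)
    rw [k, map_comap_eq_self_of_surjective hs] at this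
    rw [this]; exact O_pi _ _, map_le_iff_le_comap.1 q⟩

theorem IA.step (ih : IA.{u} (Nat.card G)) (ly : LY.{u}) (h : SS σ ⊤) : TA σ ⊤ := by
  by_cases O : 𝒪 (⊤ : Subgroup G) = ⊥
  swap
  · intro T K hT _ p c
    obtain ⟨Y, -, n, i, l⟩ := ih.quo h (O_normal _ _) O hT p c
    exact l.trans (le_O n ((O_pi _ _).of_relIndex i))
  by_cases nn : ∀ R, P2 R → R ≤ LM σ R → R ⊴ ⊤ → R = ⊥
  · exact h.ta_simple ly O (fun R k r1 l => ih _ _ _ (card_top (G := G) ▸ card_lt (lt_top_iff_ne_top.2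
      fun q => r1 (nn R k l ⟨le_top, q.ge⟩))) (h.mono le_top)) nn
  push Not at nn
  obtain ⟨R, k, l, n, r1⟩ := nn
  intro T K hT _ p c
  obtain ⟨Y, lY, nY, i, m⟩ := ih.quo h n r1 hT p c
  have cR : K ≤ 𝐂 R := c.trans (cent_anti (l.trans (LM_mono (hT.le_of_normal n k))))
  have nZ : 𝐂 R ⊓ Y ⊴ ⊤ := ⟨le_top, norm_inf (norm_cent n.norm) nY.norm⟩
  have d := ((⟨lY, k, i⟩ : Syl 2 R Y).inf_normal ⟨inf_le_right, le_top.trans nZ.norm⟩).dprod_of_cent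
    (inf_le_left.trans (cent_anti inf_le_left))
  refine (comm_eq_bot.2 (cent_symm (cent_of_perfect p ((commutator_comm _ _).le.trans ((le_inf
    ((commutator_mono cR le_rfl).trans (comm_le_left (le_top.trans (norm_cent n.norm)))) m).trans ?_))))).le.trans bot_le
  rw [← d.sup, BG.eq_bot_mono O (O_le_O_of_normal nZ _), sup_bot_eq]
  exact inf_le_left.trans (cent_symm cR)
end

theorem ia_all (ly : LY.{u}) (n : ℕ) : IA.{u} n := by
  induction n with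
  | zero => exact fun _ _ _ _ _ h => absurd h (Nat.not_lt_zero _)
  | succ n ih =>
    intro G _ _ σ X c h T K hT l p e
    have := map_mono (f := X.subtype) (IA.step (G := X) (fun G _ _ σ Y d => ih G σ Y (by omega)) ly
      (h.comap X.subtype (map_subtype_le _)) (T.subgroupOf X) (K.subgroupOf X) (subgroupOf_self X ▸ hall_subgroupOf hT le_rfl) le_top
      (by rw [← subgroupOf_comm l l, p]) fun k a y b => Subtype.ext (e a y ((LM_le_iff (X := (LM σ T).subgroupOf X)).2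
        (fun z c d => mem_LM c.2 d) b)))
    rw [map_commutator, ← O_map_subtype, map_top_subtype, map_subgroupOf_eq_of_le l] at this
    exact (commutator_mono le_rfl h.le_map).trans this

theorem SS.ta {G : Type u} [Group G] [Finite G] {σ : Set G} {X : Subgroup G} (h : SS σ X) (ly : LY.{u}) : TA σ X :=
  ia_all ly _ G σ X (Nat.lt_succ_self _) h

/-- Goldschmidt's Theorem A -/
theorem thmA {G : Type u} [Group G] [Finite G] {A T : Subgroup G} (ly : LY.{u}) (O : 𝒪 (⊤ : Subgroup G) = ⊥)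
    (h : IsStronglyClosed A T) (hT : Syl 2 T ⊤) : Rs (𝐂 A) = Rs (𝐂 (normalClosure (A : Set G))) := by
  refine le_antisymm (le_Rs (comm_eq_bot.1 (le_bot_iff.1 ?_)) Rs_perf) (Rs_mono (cent_anti le_normalClosure))
  rw [← O, ← LM_cs]
  exact (ss_cs h hT).ta ly T _ hT le_top Rs_perf (by rw [LM_cs_syl h]; exact Rs_le)

end CF.SC2
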