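-- copy of `Holt.Lf` avoiding a name clash (`Comp.syl_inf`) with `Sig.S4D`
import Cfsg.Agent.Holt.Le
import Cfsg.Agent.NCz.SC2G

/-!
# Holt's theorem, local structure: the components in the reduced case
-/

set_option linter.unusedSectionVars false
set_option autoImplicit false

namespace CF.Holt.LS
open MulAction Subgroup Cfsg CF.BG CF.Bender CF.ZD CF.Ab2 CF.Sig Equiv
open scoped Pointwise commutatorElement

universe u

theorem Act.congr {G A A' : Type*} [Group G] [Finite G] [MulAction G A] [MulAction G A'] {L : Subgroup G}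
    {Λ : Set A} (a : Act L Λ) (φ : A → A') (ev : ∀ l ∈ L, ∀ p, φ (l • p) = l • φ p)
    (inj : Λ.InjOn φ) : Act L (φ '' Λ) := by
  classical
  have iv : ∀ {l : G} {p : A}, l ∈ L → p ∈ Λ → l • p ∈ Λ := fun hl hp => St_mem (a.st hl) hp
  refine ⟨⟨a.ns, a.fin.image φ, fun l hl => mem_St_of (a.fin.image φ) ?_, ?_, ?_⟩,
    a.kind.imp (fun s t ht it => ?_) fun ⟨h1, h2⟩ => ⟨by rwa [inj.ncard_image], fun τ hτ => ?_⟩⟩
  · rintro _ ⟨p, hp, rfl⟩; exact ⟨_, iv hl hp, ev l hl p⟩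
  · rintro _ ⟨p, hp, rfl⟩ _ ⟨q, hq, rfl⟩
    obtain ⟨l, hl, rfl⟩ := a.tr hp hq
    exact ⟨l, hl, (ev l hl p).symm⟩
  · obtain ⟨p, hp, q, hq, n⟩ := a.nt
    exact ⟨_, ⟨p, hp, rfl⟩, _, ⟨q, hq, rfl⟩, fun e => n (inj hp hq e)⟩
  · obtain ⟨p, hp, e, u⟩ := s t ht it
    refine ⟨_, ⟨p, hp, rfl⟩, by rw [← ev t ht, e], ?_⟩
    rintro _ ⟨q, hq, rfl⟩ k
    rw [u q hq (inj (iv ht hq) hq ((ev t ht q).trans k))]
  · haveI := a.fin.fintype
    let e : Λ ≃ φ '' Λ := inj.bijOn_image.equiv φ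
    obtain ⟨l, hl, k⟩ := h2 (e.symm.permCongr τ) (by rw [Perm.sign_permCongr, hτ])
    refine ⟨l, hl, fun p => ?_⟩
    obtain ⟨p, rfl⟩ := e.surjective p
    have : (e (e.symm.permCongr τ p) : A') = τ (e p) := by simp
    rw [← this]
    show l • φ p = φ _
    rw [← ev l hl, k]

variable {H X : Type u} [Group H] [MulAction H X] [Finite H] [Finite X] {L L' S : Subgroup H}
  {d e g l t : H} {x y : X} {σ τ : Set X} {n : ℕ}

/-- points with the same stabiliser in `L` -/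
def fb (L : Subgroup H) (x : X) : Set X := {y | L ⊓ stabilizer H y = L ⊓ stabilizer H x}

/-- the fibres -/
def Dl (X : Type u) [MulAction H X] (L : Subgroup H) : Set (Set X) := Set.range (fb L)

/-- orbits -/
def ob (L : Subgroup H) (x : X) : Set X := {y | ∃ l ∈ L, l • x = y}

theorem fb_self (L : Subgroup H) (x : X) : x ∈ fb L x := rfl
theorem fb_mem (L : Subgroup H) (x : X) : fb L x ∈ Dl X L := ⟨x, rfl⟩
theorem fb_eq (h : y ∈ fb L x) : fb L y = fb L x := by rw [fb, fb, show L ⊓ stabilizer H y = _ from h]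
theorem Dl_eq (hσ : σ ∈ Dl X L) (h : x ∈ σ) : σ = fb L x := by
  obtain ⟨y, rfl⟩ := hσ; exact (fb_eq h).symm
theorem Dl_disj (hσ : σ ∈ Dl X L) (hτ : τ ∈ Dl X L) (h : x ∈ σ) (k : x ∈ τ) : σ = τ :=
  (Dl_eq hσ h).trans (Dl_eq hτ k).symm
theorem Dl_ne (hσ : σ ∈ Dl X L) : σ.Nonempty := by obtain ⟨y, rfl⟩ := hσ; exact ⟨y, rfl⟩

theorem fb_cj (g : H) (L : Subgroup H) (x : X) : g • fb L x = fb (cj g L) (g • x) := by
  ext y
  rw [Set.mem_smul_set_iff_inv_smul_mem, fb, fb, Set.mem_setOf_eq, Set.mem_setOf_eq, ← cj_stab, ← cj_stab,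
    ← cj_inf, eq_cj_iff, cj_inf, cj_inv_cj]

theorem fb_smul (hg : g ∈ 𝐍 L) (x : X) : g • fb L x = fb L (g • x) := by rw [fb_cj, cj_of_norm hg]

theorem Dl_cj (g : H) (L : Subgroup H) : g • Dl X L = Dl X (cj g L) := by
  ext σ
  constructor
  · rintro ⟨_, ⟨x, rfl⟩, rfl⟩; exact ⟨_, (fb_cj g L x).symm⟩
  · rintro ⟨x, rfl⟩; exact ⟨_, ⟨g⁻¹ • x, rfl⟩, by simp only [fb_cj, smul_inv_smul]⟩

theorem Dl_st (hg : g ∈ 𝐍 L) : g ∈ St H (Dl X L) := by rw [mem_St, Dl_cj, cj_of_norm hg]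

theorem cent_Dl (hg : g ∈ 𝐂 L) : g ∈ FX H (Dl X L) := mem_FX.2 (by
  rintro _ ⟨x, rfl⟩
  rw [fb_smul (cent_le_norm _ hg)]
  refine fb_eq (show _ = _ from ?_)
  rw [← cj_stab, ← cj_of_cent (cent_anti (inf_le_left (b := stabilizer H x)) hg), cj_inf,
    cj_of_cent hg])

/-- a component in the reduced case -/
structure Cp (X : Type u) [MulAction H X] (L : Subgroup H) : Prop extends Act L (Dl X L) where
  comp : Comp L ⊤
  ptw : ∀ ⦃l⦄, l ∈ L → ∀ ⦃x : X⦄, l • fb L x = fb L x → l • x = x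
  nrm : ∀ ⦃d⦄, UP ⊤ (Set.univ : Set X) d → d ∈ 𝐍 L

variable (r : Red H X)
include r

theorem Red.ns (k : Comp L ⊤) : NS L := Comp.ns k (BG.eq_bot_mono r.F k.center_le_F)

theorem Red.cen2 (x : X) : ∃ (d : H) (S : Subgroup H),
    UP ⊤ (Set.univ : Set X) d ∧ d • x = x ∧ Syl 2 S ⊤ ∧ d ∈ 𝐂 S := by
  obtain ⟨S, hS⟩ := exists_syl 2 (⊤ : Subgroup H)
  obtain ⟨y, -, e⟩ := loc_fix r.loc le_top hS.pi
  obtain ⟨t, rfl⟩ := r.tr y x
  obtain ⟨d, h1, h2, h3⟩ := r.loc.cen le_top (hS.cj_top t).pi (Set.mem_univ _) (cj_stab t y ▸ cj_mono t e)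
  exact ⟨d, _, h1, h3, hS.cj_top t, h2⟩

theorem Red.moved (k : Comp L ⊤) (h : g ∉ 𝐍 L) : cj g L ≤ 𝐂 L :=
  (k.cj_of_norm (le_norm_self _ (mem_top g))).cent_of_ne k fun e => h (cj_eq_self.1 e)

theorem Red.nrm2 (k : Comp L ⊤) (hS : Syl 2 S ⊤) (h : d ∈ 𝐂 S) : d ∈ 𝐍 L := by_contra fun n => by
  obtain ⟨s, hs, s1⟩ := exists_mem_ne_one ((r.ns k).syl_ne (k.syl_inf2 hS))
  exact s1 ((r.ns k).eq_one hs.2 (r.moved k n (mem_cj_iff.2 ⟨s, hs.2, by
    rw [← h s hs.1, mul_inv_cancel_right]⟩)))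

theorem Red.trN (k : Comp L ⊤) (x y : X) : ∃ t ∈ 𝐍 L, Eo t ∧ t • x = y := by
  obtain ⟨d, S, h1, h2, h3, h4⟩ := r.cen2 x
  obtain ⟨e, T, k1, k2, k3, k4⟩ := r.cen2 y
  obtain ⟨t, ht, e⟩ := up_dih r.loc h1 k1 trivial trivial h2 k2
  exact ⟨t, zpowers_le.2 (mul_mem (r.nrm2 k h3 h4) (r.nrm2 k k3 k4)) ht, e⟩

theorem Red.act0 (k : Comp L ⊤) (x : X) : Act0 L (ob L x) := by
  refine ⟨r.ns k, Set.toFinite _, fun g hg => mem_St_of (Set.toFinite _) ?_, ?_, ?_⟩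
  · rintro _ ⟨l, hl, rfl⟩; exact ⟨g * l, mul_mem hg hl, mul_smul _ _ _⟩
  · rintro _ ⟨l, hl, rfl⟩ _ ⟨l', hl', rfl⟩
    exact ⟨l' * l⁻¹, mul_mem hl' (inv_mem hl), by rw [mul_smul, inv_smul_smul]⟩
  by_contra! h
  refine k.ne_bot (eq_bot_of_forall fun l hl => r.faith l fun y => ?_)
  obtain ⟨t, ht, -, rfl⟩ := r.trN k x y
  exact le_stab_smul (fun l hl => h _ ⟨l, hl, rfl⟩ _ ⟨1, one_mem _, one_smul _ _⟩) ht hl

theorem Red.diag (k : Comp L ⊤) (t2 : t * t = 1) (h : t ∉ 𝐍 L) (hl : l ∈ L) :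
    t * l * t⁻¹ ∈ 𝐂 L ∧ l * (t * l * t⁻¹) * t = t * (l * (t * l * t⁻¹)) := by
  have c := r.moved k h (conj_mem_cj.2 hl)
  refine ⟨c, ?_⟩
  rw [inv_eq_of_mul_eq_one_right t2] at c ⊢
  calc l * (t * l * t) * t = l * t * l * (t * t) := by group
    _ = (t * t) * l * t * l := by rw [t2]; group
    _ = t * ((t * l * t) * l) := by group
    _ = _ := by rw [c l hl]

theorem Red.nrm (k : Comp L ⊤) (hd : UP ⊤ (Set.univ : Set X) d) : d ∈ 𝐍 L := by_contra fun n => by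
  obtain ⟨a, -, fa⟩ := hd.ex
  obtain ⟨s, hs, is⟩ := exists_iv fun o => (r.ns k).not_od (od_iff.1 o)
  obtain ⟨b, -, fb⟩ := fix_of_odd (e2_sq is.sq) Set.finite_univ (fun _ _ => trivial) (loc_odd r.loc)
  obtain ⟨t, ht, -, rfl⟩ := r.trN k b a
  refine (is.conj t).ne ((r.act0 k (t • b)).faith (conj_mem_of_norm ht hs) (mem_FX.2 ?_))
  rintro _ ⟨l, hl, rfl⟩
  obtain ⟨c, c'⟩ := r.diag k hd.iv.sq n (inv_mem hl)
  have := up_fix r.loc hd trivial fa trivial c'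
  have e := comm_smul (c _ (conj_mem_of_norm ht hs)).symm (conj_smul fb t)
  rw [mul_smul, inv_smul_eq_iff] at this
  rwa [this] at e

theorem Red.act (h : Main.{u} n) (hn : Nat.card H < n) (k : Comp L ⊤) (x : X) : Act L (ob L x) := by
  obtain ⟨d, S, h1, h2, h3, h4⟩ := r.cen2 x
  have dN := zpowers_le.2 (r.nrm k h1)
  have gen : ∀ g ∈ L ⊔ zpowers d, g ∈ L ∨ g * d ∈ L := fun g hg => by
    obtain ⟨l, hl, y, hy, rfl⟩ := (mem_sup_norm' dN).1 hg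
    rcases iv_zpowers h1.iv hy with rfl | rfl
    · exact .inl (by rwa [mul_one])
    · exact .inr (by rwa [mul_assoc, h1.iv.sq, mul_one])
  have s := k.syl_inf2 h3
  have c : S ⊓ L ≤ 𝐂₁ d := le_cent1_iff.2 (cent_anti inf_le_left h4)
  obtain ⟨P, hP, lP⟩ := exists_syl_le (sup_le_sup_right s.le (zpowers d))
    (s.pi.sup (iv_pi h1.iv) (.inl (norm_of_cent (by rwa [cent_zpowers]))))
  have e := s.eq_of_le' (hP.inf_normal (normalIn_sup_left dN)) (le_inf (le_sup_left.trans lP) s.le)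
  have dP := lP (mem_sup_right (mem_zpowers d))
  refine (r.act0 k x).of_main h ((card_le le_top).trans_lt (by rwa [card_top])) (normalIn_sup_left dN)
    gen (sup_le (r.act0 k x).st (zpowers_le.2 (mem_St_of (Set.toFinite _) ?_)))
    (mem_sup_right (mem_zpowers d)) h1.iv.sq hP (le_cent1_iff.1 fun g hg => ?_)
    ⟨1, one_mem _, one_smul _ _⟩ h2 fun q _ e => h1.uniq trivial trivial e h2
  · rintro _ ⟨l, hl, rfl⟩
    refine ⟨_, conj_mem_of_norm (r.nrm k h1) hl, ?_⟩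
    conv_lhs => rw [← h2]
    exact conj_smul rfl d
  rcases gen g (hP.le hg) with m | m
  · exact c (e.ge (mi hg m))
  · exact (mul_mem_cancel_right (self_mem_cent1 d)).1 (c (e.ge (mi (mul_mem hg dP) m)))

theorem Red.cp (h : Main.{u} n) (hn : Nat.card H < n) (k : Comp L ⊤) : Cp X L := by
  have inj : ∀ x : X, ∀ l ∈ L, fb L (l • x) = fb L x → l • x = x := fun x l hl e => by
    have a := r.act h hn k x
    have hx : x ∈ ob L x := ⟨1, one_mem _, one_smul _ _⟩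
    have hy : l • x ∈ ob L x := ⟨l, hl, rfl⟩
    have e' : L ⊓ stabilizer H (l • x) = L ⊓ stabilizer H x := e.le (fb_self _ _)
    rcases a.kind with s | ⟨c, s⟩
    · obtain ⟨u, hu, iu, fu⟩ := s.exI a.toAct0 hx
      exact s.uniq hu iu hy hx (e'.ge (mi hu fu)).2 fu
    by_contra ne
    obtain ⟨y, hy', n⟩ := Set.exists_mem_notMem_of_ncard_lt_ncard (s := {x, l • x}) (t := ob L x)
      ((Set.ncard_insert_le _ _).trans_lt (by rw [Set.ncard_singleton]; omega))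
    obtain ⟨g, hg, e1, e2⟩ := s.two a.fin (by omega) hx hy hx hy' (Ne.symm ne) fun e => n (.inl e.symm)
    exact n (.inr (e2.symm.trans (e'.ge (mi hg e1)).2))
  obtain ⟨x, -⟩ := r.nt
  have a := r.act h hn k x
  have nL : ∀ {l}, l ∈ L → l ∈ 𝐍 L := fun hl => le_norm_self _ hl
  have : fb L '' ob L x = Dl X L := by
    refine (Set.image_subset_range _ _).antisymm ?_
    rintro _ ⟨y, rfl⟩
    obtain ⟨t, ht, o, rfl⟩ := r.trN k x y
    suffices ∃ l ∈ L, cj l (L ⊓ stabilizer H x) = cj t (L ⊓ stabilizer H x) by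
      obtain ⟨l, hl, e⟩ := this
      rw [cj_inf, cj_inf, cj_of_mem hl, cj_of_norm ht, cj_stab, cj_stab] at e
      exact ⟨_, ⟨l, hl, rfl⟩, fb_eq e⟩
    rcases a.kind with s | ⟨c, s⟩
    · obtain ⟨Q, D, w, z, b⟩ := s.bn a.toAct0 ⟨1, one_mem _, one_smul _ _⟩
      obtain ⟨l, hl, e⟩ := b.r.syl.syl_conj (b.r.syl.cj_of_norm ht)
      have : L ⊓ stabilizer H x = L ⊓ 𝐍 Q := Subgroup.ext fun g => and_congr_right fun hg => b.st hg
      exact ⟨l, hl, by rw [this, cj_inf, cj_inf, cj_of_mem hl, cj_of_norm ht, cj_norm, cj_norm, e]⟩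
    · obtain ⟨l, hl, c⟩ := s.odd a.toAct0 (by omega) ht o
      exact ⟨l, hl, by rw [← cj_of_cent (cent_anti inf_le_left c), cj_cj, cj_of_cent (cent_anti inf_le_left c),
        mul_inv_cancel_left]⟩
  refine ⟨this ▸ a.congr (fb L) (fun l hl p => (fb_smul (nL hl) p).symm) ?_, k,
    fun l hl y e => inj y l hl (by rwa [← fb_smul (nL hl)]), fun _ => r.nrm k⟩
  intro p hp q hq e
  obtain ⟨l, hl, rfl⟩ := a.tr hq hp
  exact inj q l hl e

end CF.Holt.LS
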