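-- copy of `SC2.J` avoiding a name clash (`Comp.syl_inf`) with `Sig.S4D`
/-
Strongly closed subgroups whose nonidentity elements have their centralizers in a proper subgroup.
-/
import Cfsg.Agent.NCy.SC2I
import Cfsg.Agent.Ab2.Fin3
import Cfsg.Agent.Ab2.App2
set_option autoImplicit false
set_option linter.unusedSectionVars false

namespace CF.SC2
open Subgroup Cfsg CF.BG CF.Sig CF.GW CF.Ab2
open CF.ZD (LM LM_le mem_LM LM_le_iff LM_mono)
open scoped commutatorElement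

universe u
section
variable {G : Type u} [Group G] [Finite G]
variable {A B C D E H K L M N P Q S T U V W X Y Z : Subgroup G} {a b d g s t u v w x y z : G}

theorem rs_fac (r : RS L Q D w z) (hL : g ∈ 𝐍 L) (hQ : g ∈ 𝐍 Q) : ∃ q ∈ Q, q⁻¹ * g ∈ 𝐍 D := by
  obtain ⟨k, m, e⟩ := r.syl.syl_conj ((r.syl.cj_of_mem r.wL).cj_of_norm hL)
  obtain ⟨q, hq, e'⟩ := r.other k m fun i => r.wn (cj_eq_self.1 (by
    rw [← cj_inj (g := g), e, cj_of_norm i, cj_of_norm hQ]))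
  refine ⟨q, hq, ?_⟩
  have h1 : q⁻¹ * g ∈ 𝐍 L := mul_mem (inv_mem (le_norm_self L (r.syl.le hq))) hL
  have h2 : q⁻¹ * g ∈ 𝐍 Q := mul_mem (inv_mem (le_norm_self Q hq)) hQ
  have h3 : cj (q⁻¹ * g) (cj w Q) = cj w Q := by rw [← cj_cj, e, e', cj_inv_cj]
  rw [r.D_eq, ← cj_eq_self, cj_inf, cj_inf, cj_norm, cj_norm, h3, cj_of_norm h1, cj_of_norm h2]

theorem rs_mod (r : RS L Q D w z) (na : ¬ Abelem 2 Q) : D ⊓ centMod Q (𝛀 2 Q) = ⊥ := by
  obtain ⟨x, hx, x1⟩ : ∃ x ∈ Q, x * x ≠ 1 := by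
    by_contra! e; exact na (ab_mk e)
  have sq : ∀ x ∈ Q, x * x ∈ 𝛀 2 Q := r.tri.elim (fun k => (na k).elim) fun k => k.2.1
  refine BG.eq_bot_mono r.faith (le_inf inf_le_left (cent_of_stable (N := 𝛀 2 Q)
    (cop2' (r.od.le inf_le_left) r.ab.pi) ?_ fun d hd a ha => ?_))
  · rw [commutator_comm]
    exact (commutator_mono inf_le_right le_rfl).trans (comm_centMod_le _ _)
  by_cases a1 : a = 1
  · rw [a1, mul_one, one_mul]
  obtain ⟨k, hk, rfl⟩ := r.tr _ (sq x hx) x1 a ha a1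
  have m := conj_mem_of_norm (r.DQ (r.zD hk)) hx
  rw [← conj_mul]
  generalize k * x * k⁻¹ = y at *
  have c := (mem_centMod.1 hd.2).2 y m
  have e : d * y = ⁅d, y⁆ * y * d := by rw [commutatorElement_def]; group
  have := ab_sq r.ab c
  calc _ = ⁅d, y⁆ * (⁅d, y⁆ * y) * y * d := by rw [← mul_assoc, this, one_mul]
    _ = ⁅d, y⁆ * (y * ⁅d, y⁆) * y * d := by rw [r.cen c y m]
    _ = ⁅d, y⁆ * y * (⁅d, y⁆ * y * d) := by simp only [mul_assoc]
    _ = _ := by rw [← e, ← mul_assoc, ← e, mul_assoc]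

/-- a strongly closed subgroup acting on a group of Bender type -/
theorem rs_sc (r : RS L Q D w z) (h : IsStronglyClosed S T) (k : P2 T) (l : Q ≤ T) (nL : T ≤ 𝐍 L)
    (nQ : T ≤ 𝐍 Q) (e : 𝛀 2 S = 𝛀 2 Q) : S = Q ∨ S = 𝛀 2 Q := by
  have lA : 𝛀 2 Q ≤ S := e ▸ Om_le _ _
  have z1 : z ≠ 1 := fun e => by
    have := r.card; have := r.four
    rw [e, zpowers_one_eq_bot, card_bot] at *; omega
  have zz := r.zD (mem_zpowers z)
  have t0 : ∀ {Y}, Y ≤ S → Y ⊓ 𝛀 2 Q ≤ 𝐂₁ z → Y = ⊥ := fun lY c =>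
    (k.le (lY.trans h.1)).eq_bot_of_inf_Om lY (e ▸ BG.eq_bot_mono (r.regO z (mem_zpowers z) z1)
      (le_inf inf_le_right c))
  have nS : Q ≤ 𝐍 S := (l.trans (le_norm_self T)).trans (sc_norm h h.1 le_rfl)
  by_cases c : Q ≤ S
  · refine .inl (le_antisymm (fun s hs => ?_) c)
    obtain ⟨q, hq, m⟩ := rs_fac r (nL (h.1 hs)) (nQ (h.1 hs))
    have := t0 (Y := S ⊓ 𝐍 D) inf_le_left ((inf_le_inf_right _ inf_le_right).trans ((cent_of_inf_eq_bot
      inf_le_left (norm_inf ((le_norm_self D).trans (le_norm_self _)) r.DO)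
        ((r.ab.pi.le inf_le_right).inf_eq_bot r.od)).trans (cent_le_cent1 zz)))
    exact mem_of_eq (mul_mem hq (this.le.trans bot_le (mi (mul_mem (inv_mem (c hq)) hs) m)))
      (mul_inv_cancel_left q s).symm
  have na : ¬ Abelem 2 Q := fun a => c (a.Om_eq ▸ lA)
  have i : S ⊓ Q ≤ 𝛀 2 Q := (r.irr na (le_inf lA (Om_le _ _)) inf_le_right (le_norm_iff.2 fun d hd x hx =>
    have m := conj_mem_of_norm (r.DQ hd) hx.2
    ⟨h.2 x hx.1 d (l m), m⟩)).resolve_right fun p => c (p.trans inf_le_left)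
  have c1 : S ≤ centMod Q (𝛀 2 Q) := le_centMod.2 ⟨h.1.trans (le_norm_Om 2 nQ),
    (le_inf (comm_le_left nS) (comm_le_right (h.1.trans nQ))).trans i⟩
  have c2 : Q ≤ centMod Q (𝛀 2 Q) := le_centMod.2 ⟨(Om_normal 2 Q).norm, r.der_le⟩
  have c3 : ⁅S, D⁆ ≤ Q := by
    have n : S ≤ 𝐍 (Q ⊔ D) := r.norm_eq ▸ h.1.trans (norm_inf nL (nQ.trans (le_norm_self _)))
    refine (le_inf ((commutator_mono c1 le_rfl).trans (comm_le_left (norm_centMod r.DQ r.DO)))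
      ((commutator_mono le_rfl le_sup_right).trans (comm_le_right n))).trans ?_
    rw [BG.inf_sup_left c2 (.inr r.DQ), inf_comm, rs_mod r na, sup_bot_eq]
  have nD : D ≤ 𝐍 S := le_norm_iff.2 fun d hd x hx => h.2 x hx d (mem_of_eq (mul_mem (h.1 hx)
    (l (c3 (commutator_mem_commutator (inv_mem hx) hd)))) (by rw [commutatorElement_def]; group))
  refine .inr (le_antisymm ?_ lA)
  rw [← comm_sup_inf_cent nD (cop2' r.od (k.le h.1)) (.inr (k.le h.1).sol), t0 (Y := S ⊓ 𝐂 D) inf_le_left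
    (inf_le_left.trans (inf_le_right.trans (cent_le_cent1 zz))), sup_bot_eq]
  exact (le_inf (comm_le_left nD) c3).trans i

/-- the nonidentity elements of `S` fix a unique coset of `H` -/
def TI (S H : Subgroup G) : Prop := ∀ s ∈ S, s ≠ 1 → ∀ g, g * s * g⁻¹ ∈ H → g ∈ H

theorem ti_of (h : IsStronglyClosed S T) (hT : Syl 2 T ⊤) (n : 𝐍 S ≤ H) (c : ∀ s ∈ S, s ≠ 1 → 𝐂₁ s ≤ H) :
    TI S H := fun s hs s1 g e => by
  have nT := (sc_norm h h.1 le_rfl).trans n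
  have hH := hT.of_le ((le_norm_self T).trans nT) le_top
  have c' : ∀ s ∈ S, s ≠ 1 → ∀ g, g * s * g⁻¹ ∈ H → cj g (𝐂₁ s) ≤ H := fun s hs s1 g e => by
    obtain ⟨k, hk, m⟩ := (ss_cs h hT).into hH (cs_conj (mem_cs hs) g) e
    have := c _ (cs_mem h (cs_conj (mem_cs hs) g) m) (conj_ne_one (conj_ne_one s1 g) k)
    rw [← cj_cent1, ← cj_cent1] at this
    exact (cj_le_cj (g := k)).1 (this.trans (cj_of_mem hk).ge)
  obtain ⟨z, hz, z1⟩ := exists_mem_ne_one (hT.pi.inf_cent_ne_bot (hT.pi.le h.1)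
    ((le_norm_self T).trans (sc_norm h h.1 le_rfl)) (ne_bot_of_mem hs s1))
  obtain ⟨k, hk, q⟩ := hH.syl_conj ((hT.cj_of_mem (mem_top g)).of_le ((cj_mono g (le_cent1_iff.2 hz.2)).trans
    (c' z hz.1 z1 g (c' s hs s1 g e (conj_mem_cj.2 (cent_le_cent1 (h.1 hs) hz.2))))) le_top)
  exact (H.mul_mem_cancel_left (inv_mem hk)).1 (nT (cj_eq_self.1 (by rw [← cj_cj, q, cj_inv_cj])))

theorem TI.not_le (t : TI S H) (ne : H ≠ ⊤) (n : N ⊴ ⊤) (hs : s ∈ S) (m : s ∈ N) (s1 : s ≠ 1) : ¬ N ≤ H :=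
  fun l => ne (eq_top_iff.2 fun g hg => t s hs s1 g (l (n.conj_mem hg m)))

theorem TI.se (t : TI S H) (ne : H ≠ ⊤) (hT : Syl 2 T ⊤) (l : T ≤ H) (n : N ⊴ ⊤) (hs : s ∈ S) (sT : s ∈ T)
    (m : s ∈ N) (s1 : s ≠ 1) (e : 𝛀 2 (T ⊓ N) ≤ S) : IsStronglyEmbedded ((H ⊓ N).subgroupOf N) := by
  have q := hT.inf_normal n
  refine se_of (q.of_le (inf_le_inf_right _ l) inf_le_right) (ne_bot_of_mem (mi sT m) s1) inf_le_right
    (fun p => t.not_le ne n hs m s1 (inf_eq_right.1 p)) fun Y lY y1 g hg => mi ?_ hg.1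
  obtain ⟨y, hy, y1⟩ := exists_mem_ne_one ((q.pi.le lY).inf_Om_ne_bot lY y1)
  exact t y (e hy.2) y1 g (l (lY (conj_mem_of_norm hg.2 hy.1)).1)

theorem TI.ab (t : TI S H) (ne : H ≠ ⊤) (h : IsStronglyClosed S T) (hT : Syl 2 T ⊤) (l : T ≤ H) :
    Abelem 2 (𝛀 2 S) := by
  refine abelem_Om p2 (Om_le_iff.2 fun x hx x2 => cent_symm (K := zpowers x) (Om_le_iff.2 fun y hy y2 => ?_)
    (mem_zpowers x))
  rw [cent_zpowers, mem_cent1]
  by_cases x1 : x = 1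
  · rw [x1, one_mul, mul_one]
  by_cases y1 : y = 1
  · rw [y1, one_mul, mul_one]
  obtain ⟨g, hg⟩ : ∃ g, g ∉ H := by
    by_contra! e; exact ne (eq_top_iff.2 fun g _ => e g)
  have ix : Iv x := .mk' x1 (pow_two x ▸ x2)
  exact zl_top (ss_cs h hT) hT l (fun d a b i g m => t d (cs_mem' h a b) i.ne_one g (l m))
    (cs_conj (mem_cs hx) g) (ix.conj g) (fun m => hg (t x hx x1 g m)) (mem_cs hy) (mem_cs hx) (h.1 hy) (h.1 hx)
    (.mk' y1 (pow_two y ▸ y2)) ix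

theorem TI.core (t : TI S H) (ly : LY.{u}) (O : 𝒪 (⊤ : Subgroup G) = ⊥) (ne : H ≠ ⊤) (h : IsStronglyClosed S T)
    (hT : Syl 2 T ⊤) (l : T ≤ H) (s0 : S ≠ ⊥) : S = T ⊓ normalClosure (S : Set G) ∨
      S = 𝛀 2 (T ⊓ normalClosure (S : Set G)) := by
  have a := t.ab ne h hT l
  have hA : ∀ U, 𝛀 2 S ≤ U → U ≤ T → IsStronglyClosed (𝛀 2 S) U := fun U l m => ⟨l, fun x hx g e =>
    mem_Om (h.2 x (Om_le _ _ hx) g (m e)) (by rw [conj_pow, a.pow x hx, mul_one, mul_inv_cancel])⟩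
  have lT := (Om_le 2 S).trans h.1
  have n := ncl_normal (𝛀 2 S)
  have lK : 𝛀 2 S ≤ normalClosure (𝛀 2 S : Set G) := le_normalClosure
  have m : normalClosure (𝛀 2 S : Set G) ≤ normalClosure (S : Set G) := normalClosure_mono (Om_le 2 S)
  have e : normalClosure (𝛀 2 S : Set G) ≤ LM (cs (𝛀 2 S)) (normalClosure (𝛀 2 S : Set G)) := by
    rw [← LM_cs]; exact LM_le_iff.2 fun x a b => mem_LM a (mem_LM a b)
  generalize normalClosure (𝛀 2 S : Set G) = K at *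
  have q := hT.inf_normal n
  have lQ := le_inf lT lK
  have ga := ((ss_cs (hA T lT le_rfl) hT).mono le_top).ga ly e (BG.eq_bot_mono O (O_le_O_of_normal n _)) q
    ((LM_cs_syl (hA _ lQ inf_le_left)).symm ▸ a.abel)
  rw [LM_cs_syl (hA _ lQ inf_le_left)] at ga
  have o2 : 𝐎 {2} K = ⊥ := eq_bot_of_forall fun x hx => by_contra fun x1 =>
    t.not_le ne (n.O _) (Om_le _ _ (ga.O_le hx)) hx x1 (ga.O_le.trans (lT.trans l))
  obtain ⟨s, hs, s1⟩ := exists_mem_ne_one ((hT.pi.le h.1).Om_ne_bot s0)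
  have lay : K ≤ Lay K := ga.le_Lay.trans (by rw [o2, inf_bot_eq, sup_bot_eq])
  obtain ⟨L, k, nl⟩ : ∃ L, Comp L K ∧ ¬ L ≤ H := by
    by_contra! e; exact t.not_le ne n (Om_le _ _ hs) (lK hs) s1 (lay.trans (Lay_le_iff.2 e))
  obtain rfl : L = K := le_antisymm k.le (lay.trans (Lay_le_iff.2 fun M j => (k.eq_or_cent j).elim (·.ge) fun c => by
    obtain ⟨x, hx, x1⟩ := exists_mem_ne_one fun e : 𝛀 2 S ⊓ M = ⊥ =>
      (ga.aq j).ne ((ga.aq j).cover'.trans (by rw [e, bot_sup_eq]))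
    exact (nl fun g hg => t x (Om_le _ _ hx.1) x1 g (by
      rw [← c hg x hx.2, mul_inv_cancel_right]; exact l (lT hx.1))).elim))
  have eO := ga.eq_Om q lQ
  rw [o2, bot_sup_eq] at eO
  obtain ⟨D, w, z, r⟩ := SEs.rs ⟨_, t.se ne hT l n (Om_le _ _ hs) (lT hs) (lK hs) s1 (eO ▸ Om_le _ _)⟩
    (Comp.ns k (BG.eq_bot_mono o2 (k.center_le_O ga.O))) q
  have c := rs_sc r h hT.pi inf_le_left (le_top.trans n.norm) (norm_inf (le_norm_self T) (le_top.trans n.norm)) eO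
  haveI := BG.normalIn_top.1 n
  rwa [le_antisymm (normalClosure_le_normal (c.elim (·.le.trans inf_le_right)
    (·.le.trans ((Om_le _ _).trans inf_le_right)) : S ≤ L)) m]

end
end CF.SC2
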